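import Cfsg.Agent.H3.Mu.G24.Core
import Cfsg.Agent.H3.LineCard

/-! The centre is trivial. -/

set_option autoImplicit false
set_option maxRecDepth 100000

open Cfsg.Agent.L0

namespace Cfsg.Agent.H3.G24

noncomputable def mchkf : ℕ → Bool := movB T (nat_lit 1365) S1 (nat_lit 1364)

theorem mchkb0 : allR mchkf 11 0 = true := by decide +kernel

theorem mchk : ∀ c < 1365, mchkf c = true := fun c hc =>
  allR_glue (d := 11) (n := 1) (forall_lt_succ' forall_lt_zero' mchkb0) c (lt_of_lt_of_le hc (by norm_num))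

theorem cen {G : Type*} [Group G] (hm : Model G 1365 6 T Bf) : Subgroup.center G = ⊥ := by
  obtain ⟨A, x, h⟩ := core' hm
  exact center_eq_bot h.tab h.base (S := S1) (W := [[],
  [nat_lit 1, nat_lit 10, nat_lit 2],
  [nat_lit 1, nat_lit 0, nat_lit 2],
  [nat_lit 1, nat_lit 10, nat_lit 1, nat_lit 10, nat_lit 2],
  [nat_lit 1, nat_lit 0, nat_lit 1, nat_lit 0, nat_lit 3, nat_lit 2],
  [nat_lit 1, nat_lit 0, nat_lit 1, nat_lit 10, nat_lit 1, nat_lit 10]]) (by decide +kernel) mchk

theorem card (G : Type*) [Group G] (hm : Model G 1365 6 T Bf) : Nat.card G = 251596800 := by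
  obtain ⟨A, x, h⟩ := core' hm
  exact h.card

end Cfsg.Agent.H3.G24
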